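import Cfsg.Agent.Lib.Twisted.GraphAut

/-! The transposition of two outer nodes of `D₄` (generated tables, checked in the kernel). -/

set_option autoImplicit false

namespace CfsgLib.InvCentralizers.AutChev

open Cfsg.Lie CfsgLib.Twisted

/-- the roots under the transposition -/
def graphSigmaD4T (s : ℕ) : ℕ := (0x17161511100d14130f0e120c0b05090804030a0706020100 >>> (8 * s)) % 256

/-- the signs -/
def graphEtaD4T (s : ℕ) : ℤ := if (0x1b00d8 >>> s) % 2 = 0 then 1 else -1

/-- the permutation matrix on the nodes -/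
def graphND4T (k j : ℕ) : ℤ := if Nat.beq k (List.getD [2, 1, 0, 3] j 0) then 1 else 0

theorem graphAutD4T_check :
    (checkAut chevD4 cartD4 coroD4 graphSigmaD4T graphSigmaD4T graphEtaD4T graphND4T &&
    checkInverse chevD4 graphSigmaD4T graphSigmaD4T graphEtaD4T graphEtaD4T graphND4T graphND4T &&
    (List.range 4).all fun i =>
      Nat.beq (graphSigmaD4T (chevD4.simple i)) (chevD4.simple (List.getD [2, 1, 0, 3] i 0)) &&
      Nat.beq (graphSigmaD4T (chevD4.neg (chevD4.simple i)))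
        (chevD4.neg (chevD4.simple (List.getD [2, 1, 0, 3] i 0))) &&
      decide (chevD4.simple i < 24) && decide (chevD4.neg (chevD4.simple i) < 24) &&
      intEqb (graphEtaD4T (chevD4.simple i)) 1 && intEqb (graphEtaD4T (chevD4.neg (chevD4.simple i))) 1) =
        true := by
  decide +kernel

theorem exists_graphAutD4T (F : Type*) [Field F] :
    ∃ α : ↥(chevD4.group F) ≃* ↥(chevD4.group F), ∀ (g : ↥(chevD4.group F)) (i : ℕ) (t : F), i < chevD4.rank →
      (((g : GL chevD4.Idx F) : Matrix chevD4.Idx chevD4.Idx F) = chevD4.x F (chevD4.simple i) t →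
        ((α g : GL chevD4.Idx F) : Matrix chevD4.Idx chevD4.Idx F) =
          chevD4.x F (chevD4.simple ([2, 1, 0, 3].getD i 0)) t) ∧
      (((g : GL chevD4.Idx F) : Matrix chevD4.Idx chevD4.Idx F) = chevD4.x F (chevD4.neg (chevD4.simple i)) t →
        ((α g : GL chevD4.Idx F) : Matrix chevD4.Idx chevD4.Idx F) =
          chevD4.x F (chevD4.neg (chevD4.simple ([2, 1, 0, 3].getD i 0))) t) := by
  have h := graphAutD4T_check
  simp only [Bool.and_eq_true, List.all_eq_true, List.mem_range, decide_eq_true_eq] at h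
  obtain ⟨⟨h1, h2⟩, h4⟩ := h
  obtain ⟨α, hα⟩ := exists_groupAut_of_check chevD4 tablesD4 h1 h2 h2 F
  refine ⟨α, fun g i t hi => ?_⟩
  obtain ⟨⟨⟨⟨⟨a1, a2⟩, a3⟩, a4⟩, a5⟩, a6⟩ := h4 i hi
  refine ⟨fun hg => ?_, fun hg => ?_⟩
  · rw [hα g _ t a3 hg, Nat.eq_of_beq_eq_true a1, intEqb_eq a5, Int.cast_one, one_mul]
  · rw [hα g _ t a4 hg, Nat.eq_of_beq_eq_true a2, intEqb_eq a6, Int.cast_one, one_mul]

end CfsgLib.InvCentralizers.AutChev
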