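import Cfsg.Agent.Lib.InvCentralizers.AutChev.Diagram
import Cfsg.Agent.Lib.InvCentralizers.AutChev.GraphD4

/-! All six symmetries of the diagram of `D₄` are realised. -/

set_option autoImplicit false
set_option linter.unusedSectionVars false
set_option linter.style.haveILetI false

namespace CfsgLib.InvCentralizers.AutChev

open Cfsg.Lie CfsgLib.Chevalley

variable {F : Type*} [Field F]

/-- A permutation of the nodes of `D₄` from a list. -/
def cycD4 : Equiv.Perm (Fin chevD4.rank) :=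
  ⟨fun i => ⟨([2, 1, 3, 0] : List ℕ).getD i 0, by revert i; decide +kernel⟩,
    fun i => ⟨([3, 1, 0, 2] : List ℕ).getD i 0, by revert i; decide +kernel⟩,
    by decide +kernel, by decide +kernel⟩

/-- The transposition of the outer nodes `0` and `2`. -/
def swapD4 : Equiv.Perm (Fin chevD4.rank) :=
  ⟨fun i => ⟨([2, 1, 0, 3] : List ℕ).getD i 0, by revert i; decide +kernel⟩,
    fun i => ⟨([2, 1, 0, 3] : List ℕ).getD i 0, by revert i; decide +kernel⟩,
    by decide +kernel, by decide +kernel⟩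

theorem d4_perm_facts :
    cycD4 ^ 3 = 1 ∧ cycD4 ≠ 1 ∧ swapD4 ^ 2 = 1 ∧ swapD4 ≠ 1 ∧ cycD4 * swapD4 ≠ swapD4 * cycD4 := by
  decide +kernel

theorem d4_range {A : Aux} (h : Full chevD4 A) :
    Nat.card (piHom h F).range = 6 ∧ cycD4 ∈ (piHom h F).range ∧ swapD4 ∈ (piHom h F).range := by
  obtain ⟨α, hα⟩ := CfsgLib.Twisted.exists_graphAutD4A F
  obtain ⟨β, hβ⟩ := exists_graphAutD4T F
  have hc : cycD4 ∈ (piHom h F).range :=
    mem_range_of_aut h α cycD4 (fun _ => RingEquiv.refl F) ⟨⟨fun i t => (eq_xE_iff h.cert).1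
      ((hα _ i t i.isLt).1 rfl), fun i t => (eq_xE_iff h.cert).1 ((hα _ i t i.isLt).2 rfl)⟩⟩
  have hs : swapD4 ∈ (piHom h F).range :=
    mem_range_of_aut h β swapD4 (fun _ => RingEquiv.refl F) ⟨⟨fun i t => (eq_xE_iff h.cert).1
      ((hβ _ i t i.isLt).1 rfl), fun i t => (eq_xE_iff h.cert).1 ((hβ _ i t i.isLt).2 rfl)⟩⟩
  refine ⟨?_, hc, hs⟩
  obtain ⟨c3, c1, s2, s1, -⟩ := d4_perm_facts
  haveI : Fact (Nat.Prime 3) := ⟨Nat.prime_three⟩
  haveI : Fact (Nat.Prime 2) := ⟨Nat.prime_two⟩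
  have h3 : 3 ∣ Nat.card (piHom h F).range := by
    have := orderOf_dvd_natCard (⟨cycD4, hc⟩ : (piHom h F).range)
    rwa [← Subgroup.orderOf_coe, orderOf_eq_prime c3 c1] at this
  have h2 : 2 ∣ Nat.card (piHom h F).range := by
    have := orderOf_dvd_natCard (⟨swapD4, hs⟩ : (piHom h F).range)
    rwa [← Subgroup.orderOf_coe, orderOf_eq_prime s2 s1] at this
  have hle := (card_range_le (F := F) h).trans_eq exts_lengths.2.2.1
  have h6 : 6 ∣ Nat.card (piHom h F).range :=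
    (Nat.Coprime.mul_dvd_of_dvd_of_dvd (by norm_num : Nat.Coprime 2 3) h2 h3)
  exact le_antisymm hle (Nat.le_of_dvd Nat.card_pos h6)

end CfsgLib.InvCentralizers.AutChev
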